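import Mathlib
import Cfsg.Agent.Lib.Helper40.OTS.Defs
import Cfsg.Agent.Lib.Helper14.Forms

/-!
# OTS (S5972): package INV2-NEC

For `q ≡ 3 (mod 4)` the product of the reflections along `e₀` and `e₁ + f₁` is an involution of
`Ω_{2d+1}(q)` fixing no totally singular `d`-space.
-/

set_option autoImplicit false
set_option linter.style.haveILetI false
open scoped MatrixGroups

namespace Cfsg.Agent.Lib.Helper94.OTS

open Matrix Cfsg.Agent.Lib.Helper14 Cfsg.Agent.Lib.Helper40.OTS

universe u

section vecs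

variable {F : Type u} [Field F] {d : ℕ}

/-- The vector `e₀`. -/
def vec0 (F : Type u) [Field F] (d : ℕ) : Unit ⊕ (Fin d ⊕ Fin d) → F := Pi.single (Sum.inl ()) 1

/-- The vector `e_j + f_j`. -/
def vecU (F : Type u) [Field F] {d : ℕ} (j : Fin d) : Unit ⊕ (Fin d ⊕ Fin d) → F :=
  Pi.single (Sum.inr (Sum.inl j)) 1 + Pi.single (Sum.inr (Sum.inr j)) 1

theorem quad_vec0_vecU (j : Fin d) (a b : F) :
    Cfsg.quadFormOdd d F (a • vec0 F d + b • vecU F j) = a ^ 2 + b ^ 2 := by
  simp [Cfsg.quadFormOdd, vec0, vecU, Pi.single_apply, pow_two]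

theorem polar_vec0 (x : Unit ⊕ (Fin d ⊕ Fin d) → F) :
    QuadraticMap.polar (⇑(oddQF d F)) (vec0 F d) x = 2 * x (Sum.inl ()) := by
  rw [oddQF_coe]
  exact odd_polar_unit d F x

theorem polar_vecU (j : Fin d) (x : Unit ⊕ (Fin d ⊕ Fin d) → F) :
    QuadraticMap.polar (⇑(oddQF d F)) (vecU F j) x =
      x (Sum.inr (Sum.inr j)) + x (Sum.inr (Sum.inl j)) := by
  unfold vecU
  rw [QuadraticMap.polar_add_left, oddQF_coe, odd_polar_inl, odd_polar_inr]

theorem quad_vec0 : oddQF d F (vec0 F d) = 1 := by
  have h := quad_vec0_vecU (F := F) (d := d)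
  rw [oddQF_coe]
  simp [Cfsg.quadFormOdd, vec0]

theorem quad_vecU (j : Fin d) : oddQF d F (vecU F j) = 1 := by
  rw [oddQF_coe]
  simp [Cfsg.quadFormOdd, vecU, Pi.single_apply]

/-- The matrix of the involution. -/
noncomputable def invMat (F : Type u) [Field F] {d : ℕ} (j : Fin d) :
    Matrix (Unit ⊕ (Fin d ⊕ Fin d)) (Unit ⊕ (Fin d ⊕ Fin d)) F :=
  Cfsg.reflectionMatrix (⇑(oddQF d F)) (vec0 F d) *
    Cfsg.reflectionMatrix (⇑(oddQF d F)) (vecU F j)

theorem invMat_mulVec (j : Fin d) (v : Unit ⊕ (Fin d ⊕ Fin d) → F) :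
    invMat F j *ᵥ v = v - (2 * v (Sum.inl ())) • vec0 F d -
      (v (Sum.inr (Sum.inr j)) + v (Sum.inr (Sum.inl j))) • vecU F j := by
  unfold invMat
  rw [← mulVec_mulVec, reflectionMatrix_mulVec, reflectionMatrix_mulVec, polar_vec0, polar_vecU,
    quad_vec0, quad_vecU]
  have h0 : vecU F j (Sum.inl ()) = 0 := by simp [vecU]
  simp only [inv_one, one_mul, Pi.sub_apply, Pi.smul_apply, smul_eq_mul, h0, mul_zero, sub_zero]
  abel

theorem invMat_mul_self (j : Fin d) : invMat F j * invMat F j = 1 := by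
  rw [ext_iff_mulVec]
  intro v
  rw [← mulVec_mulVec, one_mulVec, invMat_mulVec, invMat_mulVec]
  funext k
  rcases k with (_ | k | k)
  · simp [vec0, vecU]
    ring
  · by_cases hk : k = j
    · subst hk
      simp [vec0, vecU]
    · simp [vec0, vecU, hk]
  · by_cases hk : k = j
    · subst hk
      simp [vec0, vecU]
    · simp [vec0, vecU, hk]

theorem invMat_ne_one (h2 : (2 : F) ≠ 0) (j : Fin d) : invMat F j ≠ 1 := by
  intro h
  have h1 := congrFun (congrArg (fun M => M *ᵥ vec0 F d) h) (Sum.inl ())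
  simp only [invMat_mulVec, one_mulVec] at h1
  simp [vec0, vecU] at h1
  exact h2 h1

end vecs

section sq

variable {F : Type u} [Field F] [Fintype F]

theorem sq_add_sq_eq_zero (hq : Fintype.card F % 4 = 3) {a b : F} (h : a ^ 2 + b ^ 2 = 0) :
    a = 0 ∧ b = 0 := by
  have hns : ¬ IsSquare (-1 : F) := fun hs => (FiniteField.isSquare_neg_one_iff.mp hs) hq
  have hb : b = 0 := by
    by_contra hb
    apply hns
    refine ⟨a / b, ?_⟩
    rw [div_mul_div_comm, eq_div_iff (mul_ne_zero hb hb)]
    linear_combination (-1 : F) * h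
  subst hb
  refine ⟨?_, rfl⟩
  have : a ^ 2 = 0 := by simpa using h
  exact pow_eq_zero_iff (two_ne_zero) |>.mp this

theorem two_ne_zero_of_card (hq : Fintype.card F % 4 = 3) : (2 : F) ≠ 0 := by
  apply Ring.two_ne_zero
  intro h
  have := FiniteField.even_card_iff_char_two.mp h
  omega

end sq

/-- Package INV2-NEC. -/
theorem pkgInv2Nec : PkgInv2Nec.{u} := by
  intro F _ _ d hd hq
  classical
  have h2 : (2 : F) ≠ 0 := two_ne_zero_of_card hq
  set Q := oddQF d F with hQdef
  have hQ : (QuadraticMap.polarBilin Q).Nondegenerate := oddQF_nondegenerate d F h2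
  let j : Fin d := ⟨0, hd⟩
  set e0 := vec0 F d with he0
  set u := vecU F j with hu
  have hl : ∀ w ∈ [e0, u], Q w ≠ 0 := by
    intro w hw
    simp only [List.mem_cons, List.not_mem_nil, or_false] at hw
    rcases hw with rfl | rfl
    · rw [quad_vec0]; exact one_ne_zero
    · rw [quad_vecU]; exact one_ne_zero
  set g := prodElt Q hQ [e0, u] hl with hg
  have hcoe : ((g : GL (Unit ⊕ (Fin d ⊕ Fin d)) F) : Matrix _ _ F) = invMat F j := by
    show ([e0, u].map (Cfsg.reflectionMatrix ⇑Q)).prod = _
    simp [invMat, he0, hu, hQdef]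
  have hgmem : g ∈ commutator ↥(Cfsg.isometryGroup F ⇑Q) := by
    rw [hg, prodElt_mem_commutator_iff h2 Q hQ]
    refine ⟨by simp, ?_⟩
    simp only [List.map_cons, List.map_nil, List.prod_cons, List.prod_nil]
    rw [quad_vec0, quad_vecU]
    exact ⟨1, by ring⟩
  have key : ∀ (Q' : (Unit ⊕ (Fin d ⊕ Fin d) → F) → F) (h : ⇑Q = Q')
      (g' : ↥(Cfsg.isometryGroup F ⇑Q)), g' ∈ commutator ↥(Cfsg.isometryGroup F ⇑Q) →
      (g' : GL (Unit ⊕ (Fin d ⊕ Fin d)) F) ∈ Cfsg.Geo.omegaGL Q' := by
    intro Q' h g' hg'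
    subst h
    exact Subgroup.mem_map.mpr ⟨g', hg', rfl⟩
  refine ⟨(g : GL (Unit ⊕ (Fin d ⊕ Fin d)) F), key _ (oddQF_coe d F) g hgmem, ?_, ?_⟩
  · -- order two
    haveI : Fact (Nat.Prime 2) := ⟨Nat.prime_two⟩
    apply orderOf_eq_prime
    · apply Units.ext
      rw [Units.val_pow_eq_pow_val, hcoe, pow_two, invMat_mul_self]
      rfl
    · intro h1
      have := congrArg Units.val h1
      rw [Units.val_one] at this
      exact invMat_ne_one h2 j (hcoe.symm.trans this)
  · intro W hdim hts hinv
    rw [hcoe] at hinv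
    -- step 1: `W` lies in the orthogonal complement of `e0` and `u`
    have h1 : ∀ w ∈ W, 2 * w (Sum.inl ()) = 0 ∧ w (Sum.inr (Sum.inr j)) + w (Sum.inr (Sum.inl j)) = 0 := by
      intro w hw
      have hMw : invMat F j *ᵥ w ∈ W := by
        have := hinv (Submodule.mem_map_of_mem hw)
        rwa [Matrix.toLin'_apply] at this
      have hdiff : (2 * w (Sum.inl ())) • e0 +
          (w (Sum.inr (Sum.inr j)) + w (Sum.inr (Sum.inl j))) • u ∈ W := by
        have := W.sub_mem hw hMw
        rw [invMat_mulVec] at this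
        convert this using 1
        abel
      have := hts _ hdiff
      rw [quad_vec0_vecU] at this
      exact sq_add_sq_eq_zero hq this
    -- the polar form
    set B := QuadraticMap.polarBilin Q with hB
    have hBapp : ∀ x y, B x y = QuadraticMap.polar (⇑Q) x y := fun x y => rfl
    have hWW : ∀ w ∈ W, ∀ w' ∈ W, B w w' = 0 := by
      intro w hw w' hw'
      rw [hBapp]
      unfold QuadraticMap.polar
      have e1 := hts _ (W.add_mem hw hw')
      have e2 := hts _ hw
      have e3 := hts _ hw'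
      rw [← oddQF_coe] at e1 e2 e3
      rw [e1, e2, e3]; simp
    set P : Submodule F (Unit ⊕ (Fin d ⊕ Fin d) → F) := Submodule.span F (Set.range ![e0, u]) with hP
    have hUle : W ⊔ P ≤ LinearMap.BilinForm.orthogonal B W := by
      refine sup_le ?_ ?_
      · intro w hw
        rw [LinearMap.BilinForm.mem_orthogonal_iff]
        intro n hn
        exact hWW n hn w hw
      · rw [hP, Submodule.span_le]
        rintro _ ⟨i, rfl⟩
        show _ ∈ LinearMap.BilinForm.orthogonal B W
        rw [LinearMap.BilinForm.mem_orthogonal_iff]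
        intro n hn
        rw [hBapp, QuadraticMap.polar_comm]
        fin_cases i
        · show QuadraticMap.polar (⇑Q) e0 n = 0
          rw [polar_vec0]; exact (h1 n hn).1
        · show QuadraticMap.polar (⇑Q) u n = 0
          rw [polar_vecU]; exact (h1 n hn).2
    have hWle : W ≤ LinearMap.BilinForm.orthogonal B (W ⊔ P) := by
      intro w hw
      rw [LinearMap.BilinForm.mem_orthogonal_iff]
      intro n hn
      have := hUle hn
      rw [LinearMap.BilinForm.mem_orthogonal_iff] at this
      have h3 := this w hw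
      rw [hBapp, QuadraticMap.polar_comm] at h3
      exact h3
    -- dimensions
    have hli : LinearIndependent F ![e0, u] := by
      rw [LinearIndependent.pair_iff]
      intro s t hst
      have ha := congrFun hst (Sum.inl ())
      have hb := congrFun hst (Sum.inr (Sum.inl j))
      simp [he0, hu, vec0, vecU] at ha hb
      exact ⟨ha, hb⟩
    have hPdim : Module.finrank F ↥P = 2 := by
      rw [hP, finrank_span_eq_card hli]; simp
    have hdisj : W ⊓ P = ⊥ := by
      rw [eq_bot_iff]
      rintro z ⟨hzW, hzP⟩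
      rw [hP] at hzP
      have hzP' : z ∈ Submodule.span F ({e0, u} : Set (Unit ⊕ (Fin d ⊕ Fin d) → F)) := by
        have : Set.range ![e0, u] = {e0, u} := by
          rw [Matrix.range_cons, Matrix.range_cons, Matrix.range_empty, Set.union_empty,
            Set.singleton_union]
        rwa [this] at hzP
      obtain ⟨a, b, rfl⟩ := Submodule.mem_span_pair.mp hzP'
      have := hts _ hzW
      rw [quad_vec0_vecU] at this
      obtain ⟨rfl, rfl⟩ := sq_add_sq_eq_zero hq this
      simp
    have hsum := Submodule.finrank_sup_add_finrank_inf_eq W P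
    rw [hdisj, finrank_bot, add_zero, hdim, hPdim] at hsum
    have horth := LinearMap.BilinForm.finrank_orthogonal (B := B) hQ (W ⊔ P)
    rw [hsum, Module.finrank_fintype_fun_eq_card] at horth
    simp only [Fintype.card_sum, Fintype.card_unit, Fintype.card_fin] at horth
    have hmono := Submodule.finrank_mono hWle
    rw [hdim, horth] at hmono
    omega

end Cfsg.Agent.Lib.Helper94.OTS
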